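import Cfsg.Agent.Lib.AltSec.E6b

/-!
Alternating sections of the groups of type E₆.
-/

namespace Cfsg.Lib.AltSec

open Cfsg.Lie Cfsg.Lib.Chev Cfsg.Lib.Alg Cfsg.Lib.Root Subgroup Matrix
open scoped MatrixGroups

theorem bd_x {ι Φ k : Type} [Fintype ι] [DecidableEq ι] [Fintype Φ] [DecidableEq Φ] [Field k]
    {R : RootSys ι Φ} (T : ChevTab R) {I : List ι} {r : Φ} (hr : ∀ i ∈ I, R.α r i = 0) (t : k) :
    BD (fun a => I.map fun i => Sum.elim (fun _ => 0) (fun s => R.α s i) a) (T.xA k r t) :=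
  fun a b hab => by
  obtain ⟨i, hi, h1⟩ : ∃ i ∈ I, R.deg (Pi.evalAddMonoidHom _ i) a ≠
      R.deg (Pi.evalAddMonoidHom _ i) b := by
    by_contra! h
    exact hab (List.map_congr_left h)
  have key : ∀ f : (ι → ℤ) →+ ℤ, f (R.α r) = 0 → R.deg f a < R.deg f b →
      T.xA k r t a b = 0 := fun f hf h => by
    have := T.nil_xA f hf.ge t a b (by rwa [hf, add_zero])
    rwa [Matrix.sub_apply, one_apply_ne (by rintro rfl; simp at h), sub_zero] at this
  rcases h1.lt_or_gt with h1 | h1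
  · exact key _ (hr i hi) h1
  · refine key (-Pi.evalAddMonoidHom _ i) (neg_eq_zero.2 (hr i hi)) ?_
    revert h1
    cases a <;> cases b <;> simp [RootSys.deg]

theorem tor_diag {ι κ k : Type} [Fintype ι] [DecidableEq ι] [Fintype κ] [DecidableEq κ] [Field k]
    (τ : (ι → kˣ) →* GL κ k) (w : κ → ι → ℤ)
    (h : ∀ i t, (τ (Pi.mulSingle i t)).val = diagonal fun a => ((t ^ w a i : kˣ) : k)) (c : ι → kˣ) :
    (τ c).val = diagonal fun a => ((∏ i, c i ^ w a i : kˣ) : k) := by
  induction c using Pi.mulSingle_induction with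
  | one => simp
  | mul a b ha hb =>
    rw [map_mul, Units.val_mul, ha, hb, diagonal_mul_diagonal]
    simp [mul_zpow, Finset.prod_mul_distrib]
  | mulSingle i t =>
    rw [h]
    refine congrArg diagonal (funext fun a => ?_)
    rw [Finset.prod_eq_single i (fun j _ hj => by simp [hj]) (by simp), Pi.mulSingle_eq_same]

theorem E6_twelve {F : Type*} [Field F] [Finite F] (p : ℕ) [Fact p.Prime] [CharP F p]
    (h2 : p ≠ 2) (h3 : p ≠ 3) : ¬ Sec (chevE6.group F) 12 := fun h => by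
  obtain ⟨s, hs, hp⟩ : ∃ s, (s = 7 ∨ s = 11) ∧ p.Coprime (2 * s) := by
    by_cases h7 : p = 7
    · exact ⟨11, .inr rfl, by rw [h7]; decide⟩
    · exact ⟨7, .inl rfl, (coprime_of_ne Nat.prime_two h2).mul_right
        (coprime_of_ne Nat.prime_seven h7)⟩
  obtain ⟨E, _, _, i, hE⟩ := exists_ext F p hp (by omega)
  have := charP_of_injective_ringHom i.injective p
  let k := AlgebraicClosure E
  obtain ⟨φ, hφ⟩ := algE6 k p (exists_pow_pow_eq E p)
  obtain ⟨n, hn, hF⟩ := exists_card_eq_pow (F := E) p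
  let j := algebraMap E k
  obtain ⟨π, -, hπ, -⟩ := hφ.exists_proj j hF (checkedE6.noA1 (by simp)) (checkedE6.gsys_strongComm E)
    (checkedE6.gsys_faithful E) (checkedE6.gsys_adjoint E) (checkedE6.gsys_grp E)
  have := hφ.frob.finite n hn
  obtain ⟨ρ, σ, ε, hE', hρ, -⟩ := checkedE6.exists_emb checkedE8 embE6E8_chk
  obtain ⟨ψ, hψ⟩ := checkedE6.exists_hom_of_emb (by simp) k (checkedE8.strongComm k)
    (checkedE8.adjoint k).hMul hE'
  replace hρ : ∀ i, (ρ i).val = i := fun i => (hρ i).trans (by revert i; decide)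
  have hk : ∀ m : ℕ, m.Prime → p ≠ m → (m : k) ≠ 0 := fun m hm h e =>
    h ((Nat.prime_dvd_prime_iff_eq Fact.out hm).1 ((CharP.cast_eq_zero_iff k p m).1 e))
  have hx : ∀ r t, ψ ((checkedE6.stSys k (by simp)).x r t) = (checkedE8.sys k).x (σ r) (ε r * t) :=
    fun r t => by rw [Checked.stSys_x, hψ]
  refine Set6.not_sec (C := hφ.fin j hF) (j := j) (ρ := ψ.comp (Subgroup.subtype _))
    ⟨hφ.fin_faithful j hF, hφ.fin_hMul j hF, hφ.fin_inj j hF, hφ.fin_grp j hF,
      fun x hx => hφ.exists_isConj_fin hn j hF ?_ hx, fun c => ?_, fun I r t hr => ?_,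
      by simpa using hk 2 Nat.prime_two h2, by simpa using hk 3 Nat.prime_three h3, s, hs, ?_⟩
    ((h.group i).of_surj π hπ)
  · rw [← hF]
    exact (Nat.modEq_iff_dvd' Nat.card_pos).1 (hE.of_mul_right s).symm
  · refine (congrArg (fun g => (ψ g).val) (hφ.coe_fin_torus j hF c)).trans
      ((tor_diag (ψ.comp hφ.tor) wt (fun i t => ?_) _).trans
        (congrArg diagonal (funext fun a => by simp [map_zpow₀]; rfl)))
    rw [MonoidHom.comp_apply, hφ.hMul.torus_mulSingle, hE'.map_h hx]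
    refine (congrArg Units.val ((checkedE8.base' k).h_simple_eq _ _)).trans
      ((RootSys.mono_one_eq_diagonal _).trans (congrArg diagonal (funext fun a => ?_)))
    rcases a with a | a
    · exact (congrArg Units.val (zpow_zero t)).symm
    · exact congrArg (fun m : ℤ => (t ^ m).val) ((checkedE8.cartan_eq _ _).symm.trans
        (hρ i ▸ (caN_eq _ _ _).symm))
  · have h4 : ∀ i ∈ I, R8.α (σ r) i = 0 := fun i hi => by
      by_cases h : i ∈ Set.range ρ
      · obtain ⟨i, rfl⟩ := h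
        exact (hE'.α_in r i).trans (hr _ hi i (hρ i).symm)
      · exact hE'.α_out r i h
    have h5 : ∀ t, (checkedE8.sys k).x (σ r) t ∈ bdGrp k (dI I) := fun t =>
      ⟨bd_x checkedE8.T h4 t, (checkedE8.sys k).x_neg (σ r) t ▸ bd_x checkedE8.T h4 (-t)⟩
    exact (hx r (j t)).symm ▸ h5 _
  · have h4 := (index_modEq (hφ.fin_faithful j hF) (hφ.fin_grp j hF) hE).of_mul_left 2
    rw [cardWE6] at h4
    exact mt (h4.dvd_iff dvd_rfl).1 (by rcases hs with rfl | rfl <;> decide)

theorem E6_le {F : Type*} [Field F] [Finite F] (p : ℕ) [Fact p.Prime] [CharP F p] :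
    ¬ Sec (chevE6.group F) (11 + (if p = 2 ∨ p = 3 ∨ p = 5 then 1 else 0) + 1) := by
  split_ifs with hp
  · exact E6_thirteen p (by omega)
  · exact E6_twelve p (by omega) (by omega)

end Cfsg.Lib.AltSec
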