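import Mathlib

/-!
Block diagonal matrices and fixed spaces of commuting involutions.
-/

namespace Cfsg.Lib.AltSec

open Module Matrix
open scoped MatrixGroups

section

variable {κ X k : Type*} [Fintype κ] [DecidableEq κ] [Field k] (d : κ → X)

/-- Block diagonal with respect to a grading. -/
def BD (A : Matrix κ κ k) : Prop := ∀ a b, d a ≠ d b → A a b = 0

variable {d}

omit [DecidableEq κ] in
theorem BD.mul {A B : Matrix κ κ k} (h : BD d A) (h' : BD d B) : BD d (A * B) := fun a b hab => by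
  rw [mul_apply]
  refine Finset.sum_eq_zero fun c _ => ?_
  by_cases e : d a = d c
  · rw [h' c b (e ▸ hab), mul_zero]
  · rw [h a c e, zero_mul]

omit [Fintype κ] in
theorem bd_diagonal (w : κ → k) : BD d (diagonal w) := fun _ _ h =>
  diagonal_apply_ne _ fun e => h (e ▸ rfl)

variable (d k) in
/-- The group of block diagonal matrices. -/
def bdGrp : Subgroup (GL κ k) where
  carrier := {g | BD d (g : Matrix κ κ k) ∧ BD d ((g⁻¹ : GL κ k) : Matrix κ κ k)}
  one_mem' := ⟨bd_diagonal 1, by rw [inv_one]; exact bd_diagonal 1⟩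
  mul_mem' ha hb := ⟨ha.1.mul hb.1, by rw [_root_.mul_inv_rev]; exact hb.2.mul ha.2⟩
  inv_mem' ha := ⟨ha.2, by rw [inv_inv]; exact ha.1⟩

variable (d k) in
/-- The action on one block. -/
def blk [DecidableEq X] (x : X) : bdGrp k d →* Matrix {a // d a = x} {a // d a = x} k where
  toFun g := (g.1 : Matrix κ κ k).submatrix Subtype.val Subtype.val
  map_one' := submatrix_one _ Subtype.val_injective
  map_mul' g g' := by
    ext a b
    simp only [Subgroup.coe_mul, Units.val_mul, submatrix_apply, mul_apply]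
    rw [← Finset.sum_subtype (Finset.univ.filter fun c => d c = x) (by simp)
      fun c => (g.1 : Matrix κ κ k) a c * (g'.1 : Matrix κ κ k) c b, Finset.sum_filter]
    refine Finset.sum_congr rfl fun c _ => ?_
    split_ifs with h
    · rfl
    · rw [g.2.1 a c (by rw [a.2]; exact Ne.symm h), zero_mul]

theorem blk_diagonal [DecidableEq X] (x : X) {g : bdGrp k d} {w : κ → k}
    (h : (g.1 : Matrix κ κ k) = diagonal w) : blk k d x g = diagonal fun a => w a.1 := by
  change submatrix _ _ _ = _
  rw [h, submatrix_diagonal _ _ Subtype.val_injective]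
  rfl

end

/-- All products of sublists. -/
def prods {G : Type*} [Monoid G] : List G → List G
  | [] => [1]
  | a :: l => prods l ++ (prods l).map (a * ·)

theorem map_prods {G G' : Type*} [Monoid G] [Monoid G'] (f : G →* G') (l : List G) :
    (prods l).map f = prods (l.map f) := by
  induction l with
  | nil => simp [prods]
  | cons a l ih => simp [prods, ← ih, Function.comp_def]

theorem length_prods {G : Type*} [Monoid G] (l : List G) : (prods l).length = 2 ^ l.length := by
  induction l with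
  | nil => rfl
  | cons a l ih => simp [prods, ih, pow_succ, mul_two]

theorem prods_mem {G : Type*} [Monoid G] {l : List G} {S : Submonoid G} (h : ∀ a ∈ l, a ∈ S) :
    ∀ x ∈ prods l, x ∈ S := by
  induction l with
  | nil => simpa [prods] using S.one_mem
  | cons a l ih =>
    simp only [prods, List.mem_append, List.mem_map]
    rintro x (hx | ⟨x, hx, rfl⟩)
    exacts [ih (fun b hb => h b (.tail _ hb)) x hx,
      S.mul_mem (h a (.head _)) (ih (fun b hb => h b (.tail _ hb)) x hx)]

theorem one_mem_prods {G : Type*} [Monoid G] (l : List G) : 1 ∈ prods l := by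
  induction l with
  | nil => simp [prods]
  | cons a l ih => exact List.mem_append_left _ ih

theorem exists_prods_nodup {G : Type*} [Group G] [Finite G] (hc : ∀ a b : G, a * b = b * a)
    (h2 : ∀ a : G, a * a = 1) {n : ℕ} (h : 2 ^ n < 2 * Nat.card G) :
    ∃ l : List G, l.length = n ∧ (prods l).Nodup := by
  classical
  have key : ∀ l : List G, ∀ x ∈ prods l, ∀ y ∈ prods l, x * y ∈ prods l := fun l => by
    induction l with
    | nil => simp [prods]
    | cons a l ih =>
      simp only [prods, List.mem_append, List.mem_map]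
      rintro x (hx | ⟨x, hx, rfl⟩) y (hy | ⟨y, hy, rfl⟩)
      · exact .inl (ih x hx y hy)
      · exact .inr ⟨_, ih x hx y hy, by rw [← mul_assoc, hc a, mul_assoc]⟩
      · exact .inr ⟨_, ih x hx y hy, (mul_assoc _ _ _).symm⟩
      · exact .inl (by rw [hc a, mul_assoc, ← mul_assoc a, h2, one_mul]; exact ih x hx y hy)
  induction n with
  | zero => exact ⟨[], rfl, List.nodup_singleton _⟩
  | succ n ih =>
    obtain ⟨l, rfl, hl⟩ := ih (by omega)
    have := Fintype.ofFinite G
    obtain ⟨a, -, ha⟩ := Finset.exists_mem_notMem_of_card_lt_card (s := (prods l).toFinset)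
      (t := Finset.univ) (by
        rw [List.toFinset_card_of_nodup hl, length_prods, Finset.card_univ,
          ← Nat.card_eq_fintype_card]
        omega)
    refine ⟨a :: l, rfl, hl.append (hl.map (mul_right_injective a)) fun x hx hx' => ha ?_⟩
    obtain ⟨y, hy, rfl⟩ := List.mem_map.1 hx'
    simpa [mul_assoc, h2] using key l _ hx y hy

section

variable {k V : Type*} [Field k] [AddCommGroup V] [Module k V] [FiniteDimensional k V]

theorem finrank_split (h2 : (2 : k) ≠ 0) {a : End k V} (ha : a * a = 1) {W : Submodule k V}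
    (hW : ∀ v ∈ W, a v ∈ W) :
    finrank k W = finrank k ↥(W ⊓ a.eigenspace 1) + finrank k ↥(W ⊓ a.eigenspace (-1)) := by
  have h1 : ∀ v, a (a v) = v := fun v => congrArg (· v) ha
  have h3 : W ⊓ a.eigenspace 1 ⊓ (W ⊓ a.eigenspace (-1)) = ⊥ := by
    rw [eq_bot_iff]
    rintro v ⟨⟨-, e⟩, -, e'⟩
    rw [SetLike.mem_coe, End.mem_eigenspace_iff] at e e'
    exact (smul_eq_zero_iff_right h2).1 (by linear_combination (norm := module) e' - e)
  have h4 : W ⊓ a.eigenspace 1 ⊔ W ⊓ a.eigenspace (-1) = W := by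
    refine le_antisymm (sup_le inf_le_left inf_le_left) fun v hv => Submodule.mem_sup.2
      ⟨(2 : k)⁻¹ • (v + a v), ⟨W.smul_mem _ (W.add_mem hv (hW v hv)), ?_⟩,
        (2 : k)⁻¹ • (v - a v), ⟨W.smul_mem _ (W.sub_mem hv (hW v hv)), ?_⟩, ?_⟩
    · simp [h1, add_comm]
    · simp [h1, smul_sub, neg_add_eq_sub]
    · rw [← smul_add, add_add_sub_cancel, ← two_smul k, inv_smul_smul₀ h2]
  rw [← Submodule.finrank_sup_add_finrank_inf_eq, h3, h4, finrank_bot, add_zero]

theorem exists_sum_fix (h2 : (2 : k) ≠ 0) {S : Submonoid (End k V)} (hS : ∀ a ∈ S, a * a = 1)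
    (hc : ∀ a ∈ S, ∀ b ∈ S, a * b = b * a) {l : List (End k V)} (hl : ∀ a ∈ l, a ∈ S)
    {W : Submodule k V} (hW : ∀ a ∈ S, ∀ v ∈ W, a v ∈ W) : ∃ m,
      2 * ((prods l).map fun x => finrank k ↥(W ⊓ x.eigenspace 1)).sum =
        2 ^ l.length * (finrank k W + m) := by
  induction l generalizing W with
  | nil => exact ⟨finrank k W, by
      simp only [prods, List.map_singleton, List.sum_singleton]
      rw [show (1 : End k V).eigenspace 1 = ⊤ from eq_top_iff.2 fun v _ => by simp, inf_top_eq]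
      simp [two_mul]⟩
  | cons a l ih =>
    have ha := hl a (.head _)
    have hl' : ∀ b ∈ l, b ∈ S := fun b hb => hl b (.tail _ hb)
    have h3 : ∀ x ∈ S, ∀ y ∈ S, ∀ c : k, ∀ v ∈ W ⊓ x.eigenspace c, y v ∈ W ⊓ x.eigenspace c :=
      fun x hx y hy c v hv => ⟨hW y hy v hv.1, End.mem_eigenspace_iff.2 (by
        rw [← End.mul_apply, hc x hx y hy, End.mul_apply, End.mem_eigenspace_iff.1 hv.2, map_smul])⟩
    obtain ⟨m, hm⟩ := ih hl' (W := W ⊓ a.eigenspace 1) fun y hy => h3 a ha y hy 1
    have h4 : ∀ x ∈ prods l, finrank k ↥(W ⊓ x.eigenspace 1) +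
        finrank k ↥(W ⊓ (a * x).eigenspace 1) = 2 * finrank k ↥(W ⊓ a.eigenspace 1 ⊓ x.eigenspace 1) +
          finrank k ↥(W ⊓ a.eigenspace (-1)) := fun x hx => by
      have hx := prods_mem hl' x hx
      have e1 : W ⊓ (a * x).eigenspace 1 ⊓ a.eigenspace 1 =
          W ⊓ a.eigenspace 1 ⊓ x.eigenspace 1 := by
        ext v
        simp only [Submodule.mem_inf, End.mem_eigenspace_iff, one_smul, hc a ha x hx, End.mul_apply]
        exact ⟨fun h => ⟨⟨h.1.1, h.2⟩, by simpa [h.2] using h.1.2⟩,
          fun h => ⟨⟨h.1.1, by rw [h.1.2, h.2]⟩, h.1.2⟩⟩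
      have e2 : W ⊓ (a * x).eigenspace 1 ⊓ a.eigenspace (-1) =
          W ⊓ a.eigenspace (-1) ⊓ x.eigenspace (-1) := by
        ext v
        simp only [Submodule.mem_inf, End.mem_eigenspace_iff, one_smul, hc a ha x hx, End.mul_apply,
          neg_smul]
        exact ⟨fun h => ⟨⟨h.1.1, h.2⟩, by simpa [h.2, neg_eq_iff_eq_neg] using h.1.2⟩,
          fun h => ⟨⟨h.1.1, by rw [h.1.2, map_neg, h.2, neg_neg]⟩, h.1.2⟩⟩
      rw [finrank_split h2 (hS a ha) (h3 x hx a ha 1),
        finrank_split h2 (hS a ha) (h3 _ (S.mul_mem ha hx) a ha 1),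
        finrank_split h2 (hS x hx) (h3 a ha x hx (-1)), e1, e2, inf_right_comm W (x.eigenspace 1),
        inf_right_comm W (x.eigenspace 1)]
      ring
    refine ⟨m, ?_⟩
    rw [prods, List.map_append, List.sum_append, List.map_map, ← List.sum_map_add,
      List.map_congr_left (fun x hx => (show _ = _ + (_ ∘ (a * ·)) x from rfl).symm.trans (h4 x hx)),
      List.sum_map_add, List.sum_map_mul_left,
      finrank_split h2 (hS a ha) (hW a ha), List.length_cons, pow_succ, hm]
    simp [length_prods]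
    ring

end

section

variable {κ k G : Type*} [Fintype κ] [DecidableEq κ] [Field k] [Group G] (ρ : G →* Matrix κ κ k)

/-- The dimension of the fixed space. -/
noncomputable def fd (g : G) : ℕ := finrank k (End.eigenspace (toLin' (ρ g)) 1)

theorem fd_add_rank (g : G) : fd ρ g + (ρ g - 1).rank = Fintype.card κ := by
  rw [fd, End.eigenspace_def, add_comm, ← finrank_fintype_fun_eq_card k,
    ← (toLin' (ρ g) - (1 : k) • 1).finrank_range_add_finrank_ker, rank, ← toLin'_apply',
    map_sub, toLin'_one, one_smul]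
  rfl

theorem fd_one : fd ρ 1 = Fintype.card κ := by simpa using fd_add_rank ρ 1

variable {ρ}

theorem fd_conj {g g' : G} (h : IsConj g g') : fd ρ g = fd ρ g' := by
  obtain ⟨a, rfl⟩ := isConj_iff.1 h
  have h1 : ∀ a, IsUnit (ρ a).det := fun a =>
    (isUnit_iff_isUnit_det _).1 ((Group.isUnit a).map ρ)
  have h2 := fd_add_rank ρ (a * g * a⁻¹)
  rw [show ρ (a * g * a⁻¹) - 1 = ρ a * (ρ g - 1) * ρ a⁻¹ by
    rw [mul_sub, sub_mul, mul_one, ← map_mul, ← map_mul, ← map_mul, mul_inv_cancel, map_one],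
    rank_mul_eq_left_of_isUnit_det _ _ (h1 _), rank_mul_eq_right_of_isUnit_det _ _ (h1 _)] at h2
  have := fd_add_rank ρ g
  omega

theorem fd_diagonal [DecidableEq k] {g : G} {w : κ → k} (h : ρ g = diagonal w) :
    fd ρ g = Fintype.card {a // w a = 1} := by
  have h1 := fd_add_rank ρ g
  rw [h, ← diagonal_one, diagonal_sub, rank_diagonal] at h1
  have h2 := Fintype.card_subtype_compl fun a => w a = 1
  have h3 := Fintype.card_subtype_le fun a => w a = 1
  simp only [ne_eq, sub_eq_zero] at h1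
  omega

variable (ρ) in
theorem exists_sum_fd (h2 : (2 : k) ≠ 0) {S : Subgroup G} (hS : ∀ a ∈ S, a * a = 1)
    (hc : ∀ a ∈ S, ∀ b ∈ S, a * b = b * a) {l : List G} (hl : ∀ a ∈ l, a ∈ S) : ∃ m,
      2 * ((prods l).map (fd ρ)).sum = 2 ^ l.length * (Fintype.card κ + m) := by
  let ψ : G →* End k (κ → k) := (toLinAlgEquiv' (R := k)).toMonoidHom.comp ρ
  obtain ⟨m, hm⟩ := exists_sum_fix h2 (S := S.toSubmonoid.map ψ) (l := l.map ψ) (W := ⊤)
    (by rintro _ ⟨a, ha, rfl⟩; rw [← map_mul, hS a ha, map_one])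
    (by rintro _ ⟨a, ha, rfl⟩ _ ⟨b, hb, rfl⟩; rw [← map_mul, hc a ha b hb, map_mul])
    (by simpa using fun a ha => ⟨a, hl a ha, rfl⟩) fun _ _ _ _ => trivial
  refine ⟨m, ?_⟩
  rw [← map_prods, List.map_map, List.length_map, finrank_top, finrank_fintype_fun_eq_card] at hm
  rw [← hm]
  congr 3
  funext g
  rw [Function.comp_apply, top_inf_eq]
  rfl

end

end Cfsg.Lib.AltSec
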