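import Cfsg.Agent.Lib.AltSec.Inst
import Cfsg.Agent.Lib.AltSec.Blk
import Cfsg.Agent.Lib.Alt.DegE
import Cfsg.Agent.Lib.Chev.InvolOdd

/-!
Data and group theoretic lemmas for alternating sections of the groups of type E₆.
-/

namespace Cfsg.Lib.AltSec

open Cfsg.Lie Cfsg.Lib.Chev Cfsg.Lib.Alg Subgroup Polynomial Matrix
open scoped MatrixGroups

theorem not_dvd_det_E6 {w : Equiv.Perm (Fin chevE6.nroots)} (hw : w ∈ checkedE6.R.W) :
    ¬ 11 ∣ (checkedE6.R.wM w * ((2 ^ 1 : ℕ) : ℤ) • 1 - 1).det.natAbs := fun hd => by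
  obtain ⟨φ, h⟩ := algE6 (AlgebraicClosure (ZMod 2)) 2 (exists_pow_pow_eq (ZMod 2) 2)
  obtain ⟨g, hg⟩ := h.exists_nw_lang (isSt_pow φ one_pos) hw
  have h1 := card_dvd_of_injective _ (h.twTor_injective (h.pow_tor' 1) hg)
  have h2 := poinE6 checkedE6 (q := 2 ^ 1) (by decide)
  rw [card_ker_mAct (det_smul_sub_one (p := 2) one_pos), h.card_fix one_pos] at h1
  have h3 := hd.trans h1
  rw [show Fintype.card (Fin chevE6.rank) = 6 from rfl, h2,
    show Fintype.card (Fin chevE6.nroots) = 72 from Fintype.card_fin _] at h3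
  exact absurd h3 (by decide +kernel)

theorem E6_thirteen {F : Type*} [Field F] [Finite F] (p : ℕ) [Fact p.Prime] [CharP F p]
    (hp : p ≠ 11) : ¬ Sec (chevE6.group F) 13 := fun h => by
  obtain ⟨E, _, A, h1, h2⟩ := h.exists_amb checkedE6 p (coprime_of_ne Fact.out hp) (by decide)
  rw [cardWE6] at h2
  obtain ⟨w, hw, h3⟩ := A.sec_one h1 Fact.out (mt (h2.dvd_iff dvd_rfl).1 (by decide)) ab13
  have h4 := h3 _ (Matrix.aeval_self_charpoly _)
  refine not_dvd_det_E6 hw (Int.natCast_dvd.1 ?_)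
  generalize checkedE6.R.wM w = M at h4
  rw [Matrix.eval_charpoly] at h4
  rw [← ZMod.intCast_zmod_eq_zero_iff_dvd, ← eq_intCast (Int.castRingHom _), RingHom.map_det] at h4 ⊢
  rw [show (Int.castRingHom (ZMod 11)).mapMatrix (M * ((2 ^ 1 : ℕ) : ℤ) • 1 - 1) =
    (-2 : ZMod 11) • (Int.castRingHom (ZMod 11)).mapMatrix (Matrix.scalar _ 6 - M) from ?_,
    det_smul, h4, mul_zero]
  rw [Matrix.mul_smul, mul_one, scalar_apply]
  ext i j
  simp only [RingHom.mapMatrix_apply, map_apply, Matrix.sub_apply, Matrix.smul_apply, smul_eq_mul,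
    eq_intCast, one_apply, diagonal_apply]
  have h : (11 : ZMod 11) = 0 := rfl
  split_ifs
  · push_cast
    linear_combination h
  · push_cast
    ring

section

variable {L : Type*} [Group L] {f : L →* alternatingGroup (Fin 12)} (hf : Function.Surjective f)
include hf

theorem map_eq_top (M : Subgroup L) [M.Normal] {x : L} (hx : x ∈ M) (h : f x ≠ 1) :
    M.map f = ⊤ :=
  haveI := alternatingGroup.isSimpleGroup (α := Fin 12) (by simp)
  ((Normal.map inferInstance f hf).eq_bot_or_eq_top).resolve_left fun e =>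
    h (mem_bot.1 (e ▸ mem_map_of_mem f hx))

omit hf in
theorem sec_of_map {G : Type*} [Group G] {j : L →* G} (hj : Function.Injective j) {M : Subgroup L}
    (hM : M.map f = ⊤) {K : Subgroup G} (hK : ∀ x ∈ M, j x ∈ K) : Sec K 12 :=
  Sec.of_inj ⟨⊤, (f.comp M.subtype).comp (Subgroup.subtype _), fun a => by
      obtain ⟨x, hx, e⟩ := hM.ge (mem_top a)
      exact ⟨⟨⟨x, hx⟩, trivial⟩, e⟩⟩
    ((j.comp M.subtype).codRestrict _ fun x => hK x x.2)
    fun _ _ e => Subtype.ext (hj (congrArg Subtype.val e))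

variable [Finite L]

/-- A small normal elementary abelian `2`-subgroup is centralised. -/
theorem map_centralizer (Z : Subgroup L) [Z.Normal] (hZ : IsPGroup 2 Z) (h : Nat.card Z ≤ 128) :
    (centralizer (Z : Set L)).map f = ⊤ := by
  obtain ⟨a, ha⟩ := exists_prime_orderOf_dvd_card' (G := alternatingGroup (Fin 12)) 11 (by
    rw [nat_card_alternatingGroup, Nat.card_eq_fintype_card, Fintype.card_fin]; decide)
  obtain ⟨P, hP, ⟨x, hx, rfl⟩, -⟩ := Amb.lift_cyc hf ha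
  refine map_eq_top hf _ (x := x) ?_ fun e => by simp [e] at ha
  letI : MulAction (zpowers x) Z :=
    MulAction.compHom Z ((MulAut.conjNormal (H := Z)).comp (zpowers x).subtype)
  have h1 := (hP.to_le (zpowers_le.2 hx)).card_modEq_card_fixedPoints Z
  let Y := (centralizer {x}).subgroupOf Z
  have h2 : ∀ z : Z, z ∈ MulAction.fixedPoints (zpowers x) Z ↔ z ∈ Y := fun z =>
    ⟨fun h => mem_centralizer_singleton_iff.2 (mul_inv_eq_iff_eq_mul.1
      (congrArg Subtype.val (h ⟨x, mem_zpowers x⟩))).symm, fun h => by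
        rintro ⟨_, i, rfl⟩
        exact Subtype.ext (mul_inv_eq_iff_eq_mul.2
          (Commute.zpow_left (mem_centralizer_singleton_iff.1 h).symm i))⟩
  rw [Nat.card_congr (Equiv.subtypeEquivRight h2)] at h1
  obtain ⟨m, hm⟩ := IsPGroup.iff_card.1 hZ
  obtain ⟨n, hn⟩ := IsPGroup.iff_card.1 (hZ.to_subgroup Y)
  have h3 : n ≤ m := (Nat.pow_dvd_pow_iff_le_right one_lt_two).1 (hm ▸ hn ▸ Y.card_subgroup_dvd_card)
  have h4 : m ≤ 7 := (Nat.pow_le_pow_iff_right one_lt_two).1 (hm ▸ h)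
  have h5 : Y = ⊤ := eq_top_of_card_eq _ (by
    rw [hm, hn] at h1 ⊢
    revert h1
    interval_cases m <;> interval_cases n <;> decide)
  exact fun z hz => mem_centralizer_singleton_iff.1 (h5.ge (mem_top (⟨z, hz⟩ : Z)))

theorem exists_central (hmin : ∀ M : Subgroup L, M.map f = ⊤ → M = ⊤) (h2 : 2 ∣ Nat.card f.ker)
    (hr : ∀ Z : Subgroup L, (∀ a ∈ Z, a * a = 1) → (∀ a ∈ Z, ∀ b ∈ Z, a * b = b * a) →
      Nat.card Z ≤ 128) : ∃ z : L, z ≠ 1 ∧ z ^ 2 = 1 ∧ ∀ x, x * z = z * x := by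
  obtain ⟨P⟩ : Nonempty (Sylow 2 f.ker) := inferInstance
  let Q := (P : Subgroup f.ker).map f.ker.subtype
  have hQ : Q.Normal := normalizer_eq_top_iff.1 (hmin _ (by
    have := congrArg (map f) P.normalizer_sup_eq_top
    rwa [Subgroup.map_sup, (Subgroup.map_eq_bot_iff f.ker).2 le_rfl, sup_bot_eq,
      map_top_of_surjective _ hf] at this))
  let Z : Subgroup L :=
    { carrier := {x | x ∈ Q ⊓ centralizer (Q : Set L) ∧ x * x = 1}
      one_mem' := ⟨one_mem _, mul_one _⟩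
      mul_mem' := fun {a b} ha hb => ⟨mul_mem ha.1 hb.1, by
        rw [mul_assoc, ← mul_assoc b, show b * a = a * b from ha.1.2 b hb.1.1, mul_assoc, hb.2,
          mul_one, ha.2]⟩
      inv_mem' := fun {a} ha => ⟨inv_mem ha.1, by rw [← _root_.mul_inv_rev, ha.2, inv_one]⟩ }
  have : Z.Normal := ⟨fun a ha g => ⟨Normal.conj_mem inferInstance a ha.1 g, by
    rw [conj_mul, ha.2, mul_one, mul_inv_cancel]⟩⟩
  have h3 := hmin _ (map_centralizer hf Z (fun a => ⟨1, Subtype.ext (by simpa [sq] using a.2.2)⟩)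
    (hr Z (fun a ha => ha.2) fun a ha b hb => hb.1.2 a ha.1.1))
  have hP : IsPGroup 2 Q := P.isPGroup'.map _
  have : Nontrivial Q := (nontrivial_iff_ne_bot _).2 fun e => P.ne_bot_of_dvd_card h2
    ((map_eq_bot_iff_of_injective _ (subtype_injective _)).1 e)
  have := hP.center_nontrivial
  obtain ⟨n, hn, e⟩ := (hP.to_subgroup (center Q)).nontrivial_iff_card.1 this
  obtain ⟨z, hz⟩ := exists_prime_orderOf_dvd_card' (G := center Q) 2 (e ▸ dvd_pow_self 2 hn.ne')
  have h4 : (z.1.1 : L) ^ 2 = 1 := congrArg (·.1.1) (hz ▸ pow_orderOf_eq_one z)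
  refine ⟨z, fun e => ?_, h4, fun x => (h3.ge (mem_top x) z ⟨⟨z.1.2, fun y hy =>
    congrArg Subtype.val (mem_center_iff.1 z.2 ⟨y, hy⟩)⟩, by rwa [← sq]⟩).symm⟩
  rw [show z = 1 from Subtype.ext (Subtype.ext e)] at hz
  simp at hz

variable (h2 : ¬ 2 ∣ Nat.card f.ker)
include h2

theorem isConj_lift {x y : L} (hx : x * x = 1) (hy : y * y = 1)
    (h : (f x : Equiv.Perm (Fin 12)).support.card = (f y : Equiv.Perm (Fin 12)).support.card)
    (h8 : (f x : Equiv.Perm (Fin 12)).support.card ≤ 8) : IsConj x y := by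
  have key : ∀ x, x * x = 1 → (f x : Equiv.Perm (Fin 12)).cycleType =
      Multiset.replicate ((f x : Equiv.Perm (Fin 12)).support.card / 2) 2 := fun x hx => by
    have := Equiv.Perm.cycleType_of_pow_prime_eq_one (σ := (f x : Equiv.Perm (Fin 12))) (p := 2) (by
      rw [← Subgroup.coe_pow, ← map_pow, sq, hx, map_one]; rfl)
    rw [← Equiv.Perm.sum_cycleType, this]
    simp
  obtain ⟨g, hg⟩ := isConj_iff.1 (alternatingGroup.isConj_of (σ := f x) (τ := f y)
    (Equiv.Perm.isConj_iff_cycleType_eq.2 (by rw [key x hx, key y hy, h])) (by simp; omega))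
  obtain ⟨g, rfl⟩ := hf g
  refine (isConj_iff.2 ⟨g, rfl⟩).trans ?_
  have hx' : g * x * g⁻¹ * (g * x * g⁻¹) = 1 := by rw [conj_mul, hx, mul_one, mul_inv_cancel]
  rw [← map_inv, ← map_mul, ← map_mul] at hg
  generalize g * x * g⁻¹ = x at hx' hg
  have h3 : x * y ∈ f.ker := by rw [MonoidHom.mem_ker, map_mul, hg, ← map_mul, hy, map_one]
  obtain ⟨m, hm⟩ := Nat.not_even_iff_odd.1 (mt even_iff_two_dvd.1 h2)
  have h4 : (x * y) ^ (2 * m + 1) = 1 :=
    congrArg Subtype.val (hm ▸ pow_card_eq_one' (x := (⟨_, h3⟩ : f.ker)))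
  have h5 : y * (x * y)⁻¹ * y⁻¹ = x * y := by
    rw [_root_.mul_inv_rev, mul_inv_cancel_left, inv_eq_of_mul_eq_one_left hx',
      inv_eq_of_mul_eq_one_left hy]
  refine (isConj_iff.2 ⟨(x * y) ^ (m + 1), ?_⟩).symm
  have h6 : y * ((x * y) ^ (m + 1))⁻¹ = (x * y) ^ (m + 1) * y := by
    rw [← inv_pow, ← mul_inv_eq_iff_eq_mul, ← conj_pow, h5]
  rw [mul_assoc, h6, ← mul_assoc, ← pow_add, show m + 1 + (m + 1) = 2 * m + 1 + 1 by ring, pow_succ,
    h4, one_mul, mul_assoc, hy, mul_one]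

theorem exists_lift_list (l : List (alternatingGroup (Fin 12)))
    (hl : ∀ a ∈ l, a * a = 1 ∧ ∀ b ∈ l, a * b = b * a) : ∃ (l' : List L) (S : Subgroup L),
      l'.map f = l ∧ (∀ a ∈ S, a * a = 1) ∧ (∀ a ∈ S, ∀ b ∈ S, a * b = b * a) ∧ ∀ a ∈ l', a ∈ S := by
  have h3 : ∀ a ∈ closure {a | a ∈ l}, ∀ b ∈ closure {a | a ∈ l}, a * b = b * a := fun a ha b hb =>
    congrArg Subtype.val ((isMulCommutative_closure fun a ha b hb => (hl a ha).2 b hb).1.1
      ⟨a, ha⟩ ⟨b, hb⟩)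
  have h4 : ∀ a ∈ closure {a | a ∈ l}, a * a = 1 := fun a ha => by
    induction ha using closure_induction with
    | mem a ha => exact (hl a ha).1
    | one => simp
    | mul a b ha hb h h' => rw [mul_assoc, ← mul_assoc b, h3 b hb a ha, mul_assoc, h', mul_one, h]
    | inv a _ h => rw [← _root_.mul_inv_rev, h, inv_one]
  obtain ⟨P, hP, h5, h6, -⟩ := exists_pLift f (s := 2) (A := closure {a | a ∈ l})
    (fun a => ⟨1, Subtype.ext (by simpa [sq] using h4 a a.2)⟩) fun a _ => hf a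
  have h7 : ∀ x ∈ P, f x = 1 → x = 1 := fun x hx h => by
    obtain ⟨n, hn⟩ := hP ⟨x, hx⟩
    exact orderOf_eq_one_iff.1 (Nat.eq_one_of_dvd_coprimes
      ((Nat.prime_two.coprime_iff_not_dvd.2 h2).pow_left n)
      (orderOf_dvd_of_pow_eq_one (congrArg Subtype.val hn)) (f.ker.orderOf_dvd_natCard h))
  choose! g hg hg' using h6
  refine ⟨l.map g, P, ?_, fun a ha => h7 _ (mul_mem ha ha) (by rw [map_mul, h4 _ (h5 a ha)]),
    fun a ha b hb => mul_inv_eq_one.1 (h7 _ (mul_mem (mul_mem ha hb) (inv_mem (mul_mem hb ha)))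
      (by rw [map_mul, map_inv, map_mul, map_mul, h3 _ (h5 a ha) _ (h5 b hb), mul_inv_cancel])), ?_⟩
  · rw [List.map_map]
    exact (List.map_congr_left fun a ha => hg' a (subset_closure ha)).trans (List.map_id _)
  · exact List.forall_mem_map.2 fun a ha => hg a (subset_closure ha)

/-- A permutation that is an even involution. -/
def iv (a : List ℕ) (h : (∀ i : Fin 12, Fin.ofNat 12 (a.getD (Fin.ofNat 12 (a.getD i 0)) 0) = i) := by
      decide +kernel) (h' : Equiv.Perm.sign (pm 12 a a fun i => ⟨h i, h i⟩) = 1 := by decide +kernel) :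
    alternatingGroup (Fin 12) := ⟨_, h'⟩

theorem not_odd {κ k : Type*} [Fintype κ] [DecidableEq κ] [Field k] (hk : (2 : k) ≠ 0)
    (ρ : L →* Matrix κ κ k) (hκ : Fintype.card κ = 27)
    (hρ : ∀ x, x * x = 1 → x ≠ 1 → fd ρ x = 15 ∨ fd ρ x = 11) : False := by
  let s : alternatingGroup (Fin 12) → ℕ := fun a => (a : Equiv.Perm (Fin 12)).support.card
  obtain ⟨G, hG⟩ : ∃ G : ℕ → ℕ, ∀ x, x * x = 1 → s (f x) ≤ 8 → fd ρ x = G (s (f x)) := by
    classical
    refine ⟨fun n => if h : ∃ x, x * x = 1 ∧ s (f x) = n then fd ρ h.choose else 0, fun x hx h => ?_⟩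
    have h3 : ∃ y, y * y = 1 ∧ s (f y) = s (f x) := ⟨x, hx, rfl⟩
    simp only [dif_pos h3]
    exact fd_conj (isConj_lift hf h2 hx h3.choose_spec.1 h3.choose_spec.2.symm h)
  have h0 : G 0 = 27 := by simpa [s, fd_one, hκ] using (hG 1 (mul_one _) (by simp [s])).symm
  have key : ∀ l : List (alternatingGroup (Fin 12)),
      (l.all fun a => decide (a * a = 1) && l.all fun b => decide (a * b = b * a)) = true →
      ∀ t, (prods l).map s = t → (∀ n ∈ t, n ≤ 8) →
        (∀ n ∈ t, n ≠ 0 → G n = 15 ∨ G n = 11) ∧ ∃ m, 2 * (t.map G).sum = 2 ^ l.length * (27 + m) := by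
    rintro l hl _ rfl h8
    obtain ⟨l, S, rfl, h3, h4, h5⟩ := exists_lift_list hf h2 l (by simpa using hl)
    have h6 : ∀ x ∈ prods l, x * x = 1 := fun x hx => h3 x (prods_mem (S := S.toSubmonoid) h5 x hx)
    obtain ⟨m, hm⟩ := exists_sum_fd ρ hk h3 h4 h5
    simp only [← map_prods, List.map_map, List.forall_mem_map, List.length_map] at h8 ⊢
    refine ⟨fun x hx h => ?_, m, ?_⟩
    · rw [Function.comp_apply, ← hG x (h6 x hx) (h8 x hx)]
      exact hρ x (h6 x hx) (by rintro rfl; simp [s] at h)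
    · rw [← hκ, ← hm, List.map_congr_left fun x hx => hG x (h6 x hx) (h8 x hx)]
      rfl
  obtain ⟨h3, m, h4⟩ := key [iv [1, 0, 3, 2, 5, 4, 7, 6, 8, 9, 10, 11],
    iv [2, 3, 0, 1, 6, 7, 4, 5, 8, 9, 10, 11], iv [4, 5, 6, 7, 0, 1, 2, 3, 8, 9, 10, 11]]
    (by decide +kernel) [0, 8, 8, 8, 8, 8, 8, 8] (by decide +kernel) (by decide)
  obtain ⟨h5, m', h6⟩ := key [iv [1, 0, 3, 2, 4, 5, 6, 7, 8, 9, 10, 11],
    iv [2, 3, 0, 1, 4, 5, 6, 7, 8, 9, 10, 11], iv [0, 1, 2, 3, 5, 4, 7, 6, 8, 9, 10, 11],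
    iv [0, 1, 2, 3, 6, 7, 4, 5, 8, 9, 10, 11]]
    (by decide +kernel) [0, 4, 4, 4, 4, 8, 8, 8, 4, 8, 8, 8, 4, 8, 8, 8] (by decide +kernel) (by decide)
  have h7 := h3 8 (by simp) (by simp)
  have h8 := h5 4 (by simp) (by simp)
  simp only [List.map_cons, List.map_nil, List.sum_cons, List.sum_nil, List.length_cons,
    List.length_nil, h0] at h4 h6
  omega

end

theorem card_le_of_fd {L κ k : Type*} [Group L] [Finite L] [Fintype κ] [DecidableEq κ] [Field k]
    (hk : (2 : k) ≠ 0) (ρ : L →* Matrix κ κ k) (hκ : Fintype.card κ = 134)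
    (hρ : ∀ x, x * x = 1 → x ≠ 1 → fd ρ x = 70) (Z : Subgroup L) (h1 : ∀ a ∈ Z, a * a = 1)
    (h2 : ∀ a ∈ Z, ∀ b ∈ Z, a * b = b * a) : Nat.card Z ≤ 128 := by
  classical
  by_contra h
  obtain ⟨l, h3, h4⟩ := exists_prods_nodup (G := Z) (fun a b => Subtype.ext (h2 _ a.2 _ b.2))
    (fun a => Subtype.ext (h1 _ a.2)) (n := 8) (by omega)
  obtain ⟨m, hm⟩ := exists_sum_fd (ρ.comp Z.subtype) hk (S := ⊤)
    (fun a _ => Subtype.ext (h1 _ a.2)) (fun a _ b _ => Subtype.ext (h2 _ a.2 _ b.2)) (l := l)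
    fun _ _ => trivial
  rw [((List.perm_cons_erase (one_mem_prods l)).map _).sum_eq, List.map_cons, List.sum_cons, fd_one,
    List.map_congr_left (f := fd (ρ.comp Z.subtype)) (g := fun _ => 70) fun (x : Z) hx =>
      hρ x (h1 _ x.2) fun e =>
      (h4.mem_erase_iff.1 hx).1 (Subtype.ext e), List.map_const', List.sum_replicate,
    List.length_erase_of_mem (one_mem_prods l), length_prods, h3, hκ, smul_eq_mul] at hm
  omega

end Cfsg.Lib.AltSec
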