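import Cfsg.Agent.Lib.AltSec.E6a

/-!
The alternating group of degree 12 is not a section of a group of type E₆ in large characteristic.
-/

namespace Cfsg.Lib.AltSec

open Cfsg.Lie Cfsg.Lib.Chev Cfsg.Lib.Alg Cfsg.Lib.Root Subgroup Matrix
open scoped MatrixGroups

/-- The root system of type E₆. -/
noncomputable abbrev R6 : RootSys (Fin 6) (Fin 72) := checkedE6.R

/-- The root system of type E₈. -/
noncomputable abbrev R8 : RootSys (Fin 8) (Fin 240) := checkedE8.R

/-- A grading of the adjoint module of type E₈. -/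
def dI (I : List (Fin 8)) (a : Fin 8 ⊕ Fin 240) : List ℤ :=
  I.map fun i : Fin 8 => Sum.elim (fun _ => 0) (fun s : Fin 240 => aN chevE8 certE8 s i) a

/-- The weights. -/
def wt (a : Fin 8 ⊕ Fin 240) (i : Fin 6) : ℤ :=
  Sum.elim (fun _ => 0) (fun s : Fin 240 => caN chevE8 i s) a

theorem cnt27 : Fintype.card {a // dI [6, 7] a = [1, 0]} = 27 := by decide +kernel

theorem cnt134 : Fintype.card {a // dI [7] a = [0]} = 134 := by decide +kernel

theorem cnt10 : Fintype.card {a // dI [0, 6, 7] a = [0, 1, 0]} ≤ 10 := by decide +kernel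

theorem cnt6 : Fintype.card {a // dI [1, 6, 7] a = [0, 1, 0]} ≤ 10 := by decide +kernel

theorem sgn27 : ∀ b : Fin 6 → Fin 2, b ≠ 0 → Fintype.card {a : {a // dI [6, 7] a = [1, 0]} //
    (∑ i, (b i : ℤ) * wt a i) % 2 = 0} ∈ [15, 11] := by decide +kernel

theorem sgn134 : ∀ b : Fin 6 → Fin 2, b ≠ 0 → Fintype.card {a : {a // dI [7] a = [0]} //
    (∑ i, (b i : ℤ) * wt a i) % 2 = 0} ∈ [70] := by decide +kernel

theorem top6 : ∀ r : Fin 72, -2 ≤ R6.α r 1 ∧ R6.α r 1 ≤ 2 ∧ (R6.α r 1 = 2 ↔ r = 71) ∧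
    (R6.α r 1 = -2 ↔ r = 0) ∧ -1 ≤ R6.α r 0 ∧ R6.α r 0 ≤ 1 := by
  change ∀ r : Fin 72, -2 ≤ aN chevE6 certE6 r 1 ∧ aN chevE6 certE6 r 1 ≤ 2 ∧
    (aN chevE6 certE6 r 1 = 2 ↔ r = 71) ∧ (aN chevE6 certE6 r 1 = -2 ↔ r = 0) ∧
      -1 ≤ aN chevE6 certE6 r 0 ∧ aN chevE6 certE6 r 0 ≤ 1
  decide +kernel

theorem go6 : ∀ m < 2 ^ 6, go2 6 [4, 8, 9, 22, 40, 16]
    0x10203030100030002020401040004000102030301000300020205010500050002020301030003000102040401000400010302030100030002000201000000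
    [0, 2 ^ (0 : Fin 6).val, 2 ^ (1 : Fin 6).val] 17 m = true := by decide +kernel

theorem dd_le {H κ k : Type} [Group H] [Finite H] [Fintype κ] [DecidableEq κ] [Field k]
    {σ : H →* alternatingGroup (Fin 12)} (hσ : Function.Surjective σ) (r : H →* Matrix κ κ k)
    (h : ∀ x, r x = 1 → σ x = 1) : Alt.dd k 12 ≤ Fintype.card κ := by
  have := Alt.feit_tits (r := 12) (by norm_num) _ H rfl σ hσ k (κ → k)
    ((toLinAlgEquiv' (R := k) (n := κ)).toMonoidHom.comp r) fun x hx =>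
      h x ((map_eq_one_iff _ (toLinAlgEquiv' (R := k) (n := κ)).injective).1 hx)
  rwa [Module.finrank_fintype_fun_eq_card] at this

variable {E k Γ : Type} [Field E] [Field k] [Group Γ]

/-- The simply connected group of type E₆ inside the group of type E₈. -/
structure Set6 (C : ChevSys R6 E Γ) (j : E →+* k) (ρ : Γ →* GL (Fin 8 ⊕ Fin 240) k) : Prop where
  hF : C.Faithful
  hM : C.HMul
  inj : Function.Injective hM.torus
  top : C.grp = ⊤
  invol : ∀ x : Γ, x ^ 2 = 1 → ∃ c, c ^ 2 = 1 ∧ IsConj x (hM.torus c)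
  tor : ∀ c, (ρ (hM.torus c) : Matrix _ _ k) = diagonal fun a => j (∏ i, c i ^ wt a i : Eˣ)
  bd : ∀ I r t, (∀ i ∈ I, ∀ i' : Fin 6, i'.val = i.val → R6.α r i' = 0) →
    ρ (C.x r t) ∈ bdGrp k (dI I)
  two : (2 : k) ≠ 0
  three : (3 : k) ≠ 0
  prime : ∃ s, (s = 7 ∨ s = 11) ∧ ¬ s ∣ (C.H ⊓ ⊤).relIndex ⊤

namespace Set6

variable [Finite E] [Finite Γ] {C : ChevSys R6 E Γ} {j : E →+* k}
  {ρ : Γ →* GL (Fin 8 ⊕ Fin 240) k} (h : Set6 C j ρ)
include h

omit [Finite E] [Finite Γ] in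
theorem H_le (I : List (Fin 8)) : C.H ≤ (bdGrp k (dI I)).comap ρ := fun g hg => by
  obtain ⟨c, rfl⟩ := h.hM.exists_torus hg
  exact ⟨h.tor c ▸ bd_diagonal _, by rw [← map_inv, ← map_inv, h.tor]; exact bd_diagonal _⟩

/-- The action on a block. -/
def β (I : List (Fin 8)) (v : List ℤ) :
    (bdGrp k (dI I)).comap ρ →* Matrix {a // dI I a = v} {a // dI I a = v} k :=
  (blk k (dI I) v).comp ((ρ.comp (Subgroup.subtype _)).codRestrict _ fun x => x.2)

omit [Finite E] [Finite Γ] in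
theorem β_torus (I : List (Fin 8)) (v : List ℤ) (c : Fin 6 → Eˣ) (hc : _) :
    β (ρ := ρ) I v ⟨h.hM.torus c, hc⟩ = diagonal fun a => j (∏ i, c i ^ wt a.1 i : Eˣ) :=
  blk_diagonal v (g := ⟨_, hc⟩) (h.tor c)

omit [Finite E] in
theorem kill {I : List (Fin 8)} {v : List ℤ} (hc : Fintype.card {a // dI I a = v} ≤ 10)
    (a : Fin 6 → Fin 8 ⊕ Fin 240) (B : Matrix (Fin 6) (Fin 6) ℤ) {m : ℕ} (hm : m ∣ 6)
    (ha : (∀ i, dI I (a i) = v) ∧ ∀ i l, (B * Matrix.of fun i => wt (a i)) i l =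
      ((m : ℤ) • (1 : Matrix _ _ ℤ)) i l) : ¬ Sec ((bdGrp k (dI I)).comap ρ) 12 := by
  rintro ⟨L, f, hf⟩
  obtain ⟨s, hs, hs'⟩ := h.prime
  have : Fact s.Prime := ⟨by rcases hs with rfl | rfl <;> norm_num⟩
  let r := (β (ρ := ρ) I v).comp L.subtype
  obtain ⟨x, h1, h2⟩ : ∃ x, r x = 1 ∧ f x ≠ 1 := by
    by_contra! h3
    have := dd_le hf r h3
    rw [Alt.dd, if_neg (by
      rw [show ((12 : ℕ) : k) = 2 * 2 * 3 by norm_num]
      exact mul_ne_zero (mul_ne_zero h.two h.two) h.three)] at this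
    omega
  have h3 := card_map_dvd r.ker f
  rw [map_eq_top hf r.ker h1 h2, card_top, nat_card_alternatingGroup,
    Nat.card_eq_fintype_card, Fintype.card_fin] at h3
  obtain ⟨y, hy⟩ := exists_prime_orderOf_dvd_card' (G := r.ker) s
    (Dvd.dvd.trans (by rcases hs with rfl | rfl <;> decide) h3)
  have hy' : orderOf (y.1.1 : Γ) = s :=
    (orderOf_coe _).trans ((orderOf_coe _).trans ((orderOf_coe _).trans hy))
  obtain ⟨g, hg, h4⟩ := exists_conj_le (K := (bdGrp k (dI I)).comap ρ) (T := C.H ⊓ ⊤)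
    (fun e => hs' (e.trans ⟨_, (relIndex_mul_relIndex _ _ _ (inf_le_left.trans (h.H_le I))
      le_top).symm⟩)) (P := zpowers (y.1.1 : Γ))
    (.of_card (n := 1) (by rw [Nat.card_zpowers, hy', pow_one])) (zpowers_le.2 y.1.1.2)
  obtain ⟨c, h5⟩ := h.hM.exists_torus (h4 _ (mem_zpowers _)).1
  have h6 : β (ρ := ρ) I v (⟨g, hg⟩ * y.1.1 * ⟨g, hg⟩⁻¹) = 1 := by
    rw [map_mul, map_mul, show β I v y.1.1 = 1 from y.2, mul_one, ← map_mul, mul_inv_cancel, map_one]
  rw [show ⟨g, hg⟩ * y.1.1 * ⟨g, hg⟩⁻¹ = ⟨_, h.H_le I (h5 ▸ (h4 _ (mem_zpowers _)).1)⟩ from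
    Subtype.ext h5.symm, h.β_torus, ← diagonal_one, diagonal_eq_diagonal_iff] at h6
  have h7 : mAct (Matrix.of fun i => wt (a i)) c = 1 := funext fun i =>
    Units.ext (j.injective ((h6 ⟨a i, ha.1 i⟩).trans (map_one j).symm))
  have h8 := mAct_mul B (Matrix.of fun i => wt (a i)) c
  rw [h7, map_one, Matrix.ext ha.2, mAct_smul, mAct_one, zpow_natCast] at h8
  have h9 : s ∣ m := by
    rw [← hy', ← (MulAut.conj g).orderOf_eq, MulAut.conj_apply, ← h5, orderOf_dvd_iff_pow_eq_one,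
      ← map_pow, h8, map_one]
  rcases hs with rfl | rfl <;> exact absurd (h9.trans hm) (by decide)

omit [Finite E] in
theorem not_D5 : ¬ Sec ↥(C.H ⊔ C.XS {r | R6.α r 0 = 0}) 12 := fun e =>
  h.kill cnt10 (fun i => .inr (![121, 124, 128, 133, 139, 145] i))
    !![0, 0, 0, 0, -2, -2; -1, -1, -1, -1, 0, 1; -1, -1, -1, -1, 0, -1; -2, -2, -2, 0, 0, 0;
      -2, -2, 0, 0, 0, 0; -2, 0, 0, 0, 0, 0] (m := 2) (by decide) (by decide +kernel)
    (e.of_inj _ (inclusion_injective (sup_le (h.H_le _) (PreSys.XS_le.2 fun r hr t => h.bd _ r t (by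
      simp only [List.forall_mem_cons]
      exact ⟨fun i hi => (Fin.ext hi : i = 0) ▸ hr, by omega, by omega, by simp⟩)))))

omit [Finite E] in
theorem not_A5 : ¬ Sec ↥(C.XS {r | R6.α r 1 = 0}) 12 := fun e =>
  h.kill cnt6 (fun i => .inr (![121, 124, 128, 133, 139, 167] i))
    !![-1, -1, -1, -1, -1, 2; -1, -1, -1, -1, -1, -1; -2, -2, -2, -2, 1, 1; -3, -3, -3, 0, 0, 0;
      -3, -3, 0, 0, 0, 0; -3, 0, 0, 0, 0, 0] (m := 3) (by decide) (by decide +kernel)
    (e.of_inj _ (inclusion_injective (PreSys.XS_le.2 fun r hr t => h.bd _ r t (by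
      simp only [List.forall_mem_cons]
      exact ⟨fun i hi => (Fin.ext hi : i = 1) ▸ hr, by omega, by omega, by simp⟩))))

theorem not_A5A1 : ¬ Sec ↥(C.H ⊔ C.XS {r | Even (R6.α r 1)}) 12 := by
  rintro ⟨L, f, hf⟩
  let i : L →* Γ := (Subgroup.subtype _).comp L.subtype
  have hi : Function.Injective i := fun _ _ e => Subtype.ext (Subtype.ext e)
  have hN : ∀ x : L, i x ∈ normalizer (C.XS {r | Even (R6.α r 1)} : Set Γ) := fun x =>
    sup_le (C.H_le_normalizer _) le_normalizer x.1.2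
  let M := (C.XS {r | Even (R6.α r 1)}).comap i
  have : M.Normal := ⟨fun x hx g => by
    simpa only [M, mem_comap, map_mul, map_inv] using (mem_normalizer_iff.1 (hN g) _).1 hx⟩
  have h1 : ∀ x y : L, x * y * x⁻¹ * y⁻¹ ∈ M := fun x y => by
    obtain ⟨a, ha, u, hu, e⟩ := C.mem_H_sup_iff.1 x.1.2
    obtain ⟨b, hb, v, hv, e'⟩ := C.mem_H_sup_iff.1 y.1.2
    have h2 : ∀ a ∈ C.H, ∀ u ∈ C.XS {r | Even (R6.α r 1)}, a * u * a⁻¹ ∈ C.XS {r | Even (R6.α r 1)} :=
      fun a ha u hu => (mem_normalizer_iff.1 (C.H_le_normalizer _ ha) u).1 hu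
    have := mul_mem (mul_mem (h2 a ha u hu) (h2 _ (mul_mem ha hb) _ (mul_mem hv (inv_mem hu))))
      (h2 b hb _ (inv_mem hv))
    simp only [M, mem_comap, map_mul, map_inv]
    rw [show i x = a * u from e, show i y = b * v from e']
    have h3 : (a * b)⁻¹ * b = a⁻¹ := by
      rw [h.hM.H_comm ha hb]
      group
    convert this using 1
    calc _ = a * u * b * v * u⁻¹ * a⁻¹ * v⁻¹ * b⁻¹ := by group
      _ = _ := by
        rw [← h3]
        nth_rw 2 [h3]
        group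
  obtain ⟨x, hx⟩ := hf (iv [1, 0, 3, 2, 4, 5, 6, 7, 8, 9, 10, 11])
  obtain ⟨y, hy⟩ := hf (iv [0, 2, 1, 3, 5, 4, 6, 7, 8, 9, 10, 11])
  have h2 := map_eq_top hf M (h1 x y) (by
    simp only [map_mul, map_inv, hx, hy]
    decide +kernel)
  obtain ⟨φ, hU, hL⟩ := h.hM.exists_sl2 71
  have h3 : R6.neg 71 = 0 := ((top6 _).2.2.2.1).1 (by
    rw [R6.α_neg, Pi.neg_apply, (top6 71).2.2.1.2 rfl])
  have h4 : ∀ u ∈ C.XS {r | R6.α r 1 = 0}, ∀ s, u * φ s = φ s * u := fun u hu s => by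
    have key : ∀ θ, (∀ r, R6.α r 1 = R6.α θ 1 → r = θ) → R6.α θ 1 = 2 ∨ R6.α θ 1 = -2 → ∀ t,
        u * C.x θ t = C.x θ t * u := fun θ h1 h2 t =>
      mem_centralizer_singleton_iff.1 ((PreSys.XS_le (K := centralizer {C.x θ t})).2 (fun r hr w =>
        mem_centralizer_singleton_iff.2 (C.commute_of_not_between (fun e => by
          rw [e, R6.α_neg, Pi.neg_apply, hr] at h2
          omega) (fun l hl => by
            obtain ⟨a, b, ha, hb, e⟩ := hl.exists_int
            have h5 := congrFun e 1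
            have h6 := top6 l
            rw [Pi.add_apply, Pi.smul_apply, Pi.smul_apply, hr, smul_zero, zero_add,
              smul_eq_mul] at h5
            obtain rfl : b = 1 := by rcases h2 with h2 | h2 <;> rw [h2] at h5 <;> omega
            rw [h1 l (by rw [h5, one_mul]), one_smul, right_eq_add, smul_eq_zero] at e
            exact e.elim ha.ne' (R6.α_ne_zero r)) w t)) hu)
    refine (show ⊤ ≤ (centralizer {u}).comap φ from upper_sup_lower (k := E) ▸ sup_le (fun g hg => ?_)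
      fun g hg => ?_) (mem_top s) u rfl
    · obtain ⟨t, rfl⟩ := mem_upper_iff.1 hg
      rw [mem_comap, hU, mem_centralizer_singleton_iff, key 71 (fun r hr => (top6 r).2.2.1.1
        (hr.trans ((top6 71).2.2.1.2 rfl))) (.inl ((top6 71).2.2.1.2 rfl))]
    · obtain ⟨t, rfl⟩ := mem_lower_iff.1 hg
      rw [mem_comap, hL, h3, mem_centralizer_singleton_iff, key 0 (fun r hr => (top6 r).2.2.2.1.1
        (hr.trans ((top6 0).2.2.2.1.2 rfl))) (.inr ((top6 0).2.2.2.1.2 rfl))]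
  have h5 : ∀ u ∈ C.XS {r | Even (R6.α r 1)}, ∃ s, u * (φ s)⁻¹ ∈ C.XS {r | R6.α r 1 = 0} :=
    fun u hu => by
      refine PreSys.XS_induction (p := fun u => ∃ s, u * (φ s)⁻¹ ∈ C.XS {r | R6.α r 1 = 0}) hu
        ⟨1, by simp⟩ ?_
      rintro g - r hr t ⟨s, hs⟩
      have key : (∃ s', C.x r t = φ s') → ∃ s, g * C.x r t * (φ s)⁻¹ ∈ C.XS {r | R6.α r 1 = 0} :=
        fun ⟨s', e⟩ => ⟨s * s', by simpa [e, mul_assoc] using hs⟩
      have h6 := top6 r
      obtain ⟨m, hm⟩ := hr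
      by_cases h7 : R6.α r 1 = 0
      · refine ⟨s, ?_⟩
        rw [mul_assoc, ← map_inv, h4 _ (C.x_mem h7 t), ← mul_assoc, map_inv]
        exact mul_mem hs (C.x_mem h7 t)
      · by_cases h8 : R6.α r 1 = 2
        · exact key ⟨_, h6.2.2.1.1 h8 ▸ (hU t).symm⟩
        · exact key ⟨_, h6.2.2.2.1.1 (by omega) ▸ h3 ▸ (hL t).symm⟩
  let S : Subgroup (L × SL(2, E)) :=
    { carrier := {p | i p.1 * (φ p.2)⁻¹ ∈ C.XS {r | R6.α r 1 = 0}}
      one_mem' := by simp
      mul_mem' := fun {a b} ha hb => by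
        have := (C.XS {r | R6.α r 1 = 0}).mul_mem ha hb
        rw [mul_assoc, ← map_inv, ← h4 _ hb, map_inv] at this
        simpa [mul_assoc] using this
      inv_mem' := fun {a} ha => by
        have h6 := (C.XS {r | R6.α r 1 = 0}).inv_mem ha
        have h7 := h4 _ h6 a.2
        simp only [Set.mem_setOf_eq, Prod.fst_inv, Prod.snd_inv, map_inv, inv_inv]
        rw [_root_.mul_inv_rev, inv_inv] at h6 h7
        rw [mul_assoc, mul_right_inj] at h7
        rwa [h7] }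
  let σ := f.comp ((MonoidHom.fst _ _).comp S.subtype)
  have hσ : Function.Surjective σ := fun a => by
    obtain ⟨x, hx, rfl⟩ := h2.ge (mem_top a)
    obtain ⟨s, hs⟩ := h5 _ hx
    exact ⟨⟨(x, s), hs⟩, rfl⟩
  let r : S →* SL(2, E) := (MonoidHom.snd _ _).comp S.subtype
  obtain ⟨x, h6, h7⟩ : ∃ x, r x = 1 ∧ σ x ≠ 1 := by
    by_contra! h8
    have h9 := dd_le hσ (SpecialLinearGroup.coeMonoidHom.comp r) fun x hx => h8 x (Subtype.ext hx)
    have := Alt.le_dd (k := E) 12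
    rw [Fintype.card_fin] at h9
    omega
  refine h.not_A5 (sec_of_map (f := σ.comp r.ker.subtype) (M := ⊤)
    (j := i.comp ((MonoidHom.fst _ _).comp (S.subtype.comp r.ker.subtype)))
    (fun a b e => Subtype.ext (Subtype.ext (Prod.ext (hi e) (a.2.trans b.2.symm)))) ?_ fun x _ => ?_)
  · rw [← Subgroup.map_map, ← MonoidHom.range_eq_map, range_subtype]
    exact map_eq_top hσ r.ker h6 h7
  · have : i x.1.1.1 * (φ x.1.1.2)⁻¹ ∈ C.XS {r | R6.α r 1 = 0} := x.1.2
    rwa [show x.1.1.2 = 1 from x.2, map_one, inv_one, mul_one] at this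

theorem not_cent {z : Γ} (h1 : z ≠ 1) (h2 : z ^ 2 = 1) : ¬ Sec (centralizer {z}) 12 := fun e => by
  obtain ⟨c, h3, h4⟩ := h.invol z h2
  obtain ⟨m, hm, h5⟩ := RootSys.exists_sgn (R := R6) h3
  obtain ⟨w, hw, m', hm', h6⟩ := h5.exists_W (by
    rw [show R6.A = _ from (isCartanE6 checkedE6).A_eq]
    simp only [Int.odd_iff]
    decide) (go6 m hm)
  obtain ⟨n, hn⟩ := C.exists_nw_of_mem_W hw
  have h7 := h4.trans (isConj_iff.2 ⟨n, h.hM.nw_conj_torus hn c⟩)
  have h8 : mAct (R6.wM w) c ^ 2 = 1 := by rw [← map_pow, h3, map_one]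
  generalize mAct (R6.wM w) c = d at h6 h7 h8
  obtain ⟨g, hg⟩ := isConj_iff.1 h7
  have h9 := e.of_map_le (K' := centralizer {h.hM.torus d}) (MulAut.conj g).toMonoidHom
    (MulAut.conj g).injective fun x hx => mem_centralizer_singleton_iff.2 (by
      simp [← hg, mul_assoc, ← mul_assoc x, mem_centralizer_singleton_iff.1 hx])
  have h10 := h.hF.centralizer_torus h.hM h.inj (isOfFinOrder_of_finite d)
  rw [h.top, top_inf_eq] at h10
  rw [h10] at h9
  have h11 : (-1 : Eˣ) ≠ 1 := fun e => h.two (by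
    have := congrArg (fun x : Eˣ => j x) e
    simp only [Units.val_neg, Units.val_one, map_neg, map_one] at this
    linear_combination -this)
  simp only [List.mem_cons, List.not_mem_nil, or_false] at hm'
  rcases hm' with rfl | rfl | rfl
  · have h12 : R6.chr d = 1 := funext fun r => by
      rw [RootSys.chr_eq_prod]
      simp [h6 _]
    have h13 : d 0 ^ 3 = 1 := (kerDataE6 checkedE6).pow_eq_one h12 0
    rw [pow_succ, show d _ ^ 2 = 1 from congrFun h8 _, one_mul] at h13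
    obtain rfl : d = 1 := funext fun i => ((kerDataE6 checkedE6).eq_prod h12 i).trans (by
      rw [Fin.prod_univ_one]
      change d 0 ^ _ = 1
      rw [h13, _root_.one_zpow])
    exact h1 (by simpa using h7)
  · refine h.not_D5 ?_
    rwa [show {r | R6.α r 0 = 0} = {r | R6.chr d r = 1} from Set.ext fun r => by
      have := top6 r
      rw [Set.mem_setOf, Set.mem_setOf, h6.chr, neg_one_zpow_eq_ite, ite_eq_left_iff,
        imp_iff_not h11, not_not, Int.even_iff]
      omega]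
  · refine h.not_A5A1 ?_
    rwa [show {r | Even (R6.α r 1)} = {r | R6.chr d r = 1} from Set.ext fun r => by
      rw [Set.mem_setOf, Set.mem_setOf, h6.chr, neg_one_zpow_eq_ite, ite_eq_left_iff,
        imp_iff_not h11, not_not]]

omit [Finite E] [Finite Γ] in
theorem exists_rep {I : List (Fin 8)} (hI : ∀ i ∈ I, 6 ≤ i.val) (v : List ℤ) {T : List ℕ}
    (hT : ∀ b : Fin 6 → Fin 2, b ≠ 0 → Fintype.card {a : {a // dI I a = v} //
      (∑ i, (b i : ℤ) * wt a i) % 2 = 0} ∈ T) :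
    ∃ r : Γ →* Matrix {a // dI I a = v} {a // dI I a = v} k, ∀ x, x * x = 1 → x ≠ 1 → fd r x ∈ T := by
  classical
  have h1 : ∀ g, g ∈ (bdGrp k (dI I)).comap ρ := fun g => PreSys.XS_le.2
    (fun r _ t => h.bd I r t fun i hi i' e => by have := hI i hi; omega) (h.top.ge (mem_top g))
  refine ⟨(β I v).comp ((MonoidHom.id _).codRestrict _ h1), fun x hx hx' => ?_⟩
  obtain ⟨c, h3, h4⟩ := h.invol x (by rwa [sq])
  have h5 : ∀ i, ∃ b : Fin 2, c i = (-1) ^ (b : ℤ) := fun i => by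
    rcases sq_eq_one_iff.1 (show (c i : E) ^ 2 = 1 from congrArg (·.1) (congrFun h3 i)) with h | h
    exacts [⟨0, Units.ext (by simpa using h)⟩, ⟨1, Units.ext (by simpa using h)⟩]
  choose b hb using h5
  rw [fd_conj h4, fd_diagonal (ρ := (β I v).comp ((MonoidHom.id _).codRestrict _ h1))
    (g := h.hM.torus c) (h.β_torus I v c (h1 _))]
  convert hT b (by
    rintro rfl
    obtain rfl : c = 1 := funext fun i => by simpa using hb i
    exact hx' (by simpa using h4)) using 4 with a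
  simp only [hb, ← _root_.zpow_mul]
  rw [prod_zpow_eq, neg_one_zpow_eq_ite, ← Int.even_iff]
  split_ifs with e
  · simp [e]
  · simpa [e] using fun e => h.two (by linear_combination -e)

theorem not_sec : ¬ Sec Γ 12 := by
  rintro ⟨L, f, hf⟩
  obtain ⟨r, hr⟩ := h.exists_rep (by decide) _ sgn27
  obtain ⟨r', hr'⟩ := h.exists_rep (by decide) _ sgn134
  induction hn : Nat.card L using Nat.strong_induction_on generalizing L with | _ n ih => ?_
  have hc : ∀ {κ : Type} [Fintype κ] [DecidableEq κ] (r : Γ →* Matrix κ κ k) (T : List ℕ),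
      (∀ x, x * x = 1 → x ≠ 1 → fd r x ∈ T) → ∀ x, x * x = 1 → x ≠ 1 →
        fd (r.comp L.subtype) x ∈ T := fun r T hr x hx hx' =>
    hr x (congrArg Subtype.val hx) fun e => hx' (Subtype.ext e)
  by_cases h2 : 2 ∣ Nat.card f.ker
  · obtain ⟨z, h3, h4, h5⟩ := exists_central hf (fun M hM => by
      by_contra h6
      obtain ⟨f', hf'⟩ : ∃ f' : M.map L.subtype →* alternatingGroup (Fin 12),
          Function.Surjective f' := ⟨(f.comp M.subtype).comp
        (M.equivMapOfInjective _ L.subtype_injective).symm.toMonoidHom, fun a => by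
          obtain ⟨x, hx, rfl⟩ := hM.ge (mem_top a)
          exact ⟨M.equivMapOfInjective _ L.subtype_injective ⟨x, hx⟩, by simp⟩⟩
      refine ih _ ?_ _ f' hf' rfl
      rw [card_map_of_injective L.subtype_injective, ← hn]
      exact (card_le_card_group M).lt_of_ne fun e => h6 (eq_top_of_card_eq _ e)) h2
      (card_le_of_fd h.two (r'.comp L.subtype) cnt134 fun x hx hx' =>
        List.mem_singleton.1 (hc r' _ hr' x hx hx'))
    exact h.not_cent (z := z) (fun e => h3 (Subtype.ext e)) (congrArg Subtype.val h4)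
      (sec_of_map L.subtype_injective (map_top_of_surjective f hf) fun x _ =>
        mem_centralizer_singleton_iff.2 (congrArg Subtype.val (h5 x)))
  · exact not_odd hf h2 h.two (r.comp L.subtype) cnt27 fun x hx hx' => by
      simpa using hc r _ hr x hx hx'

end Set6

end Cfsg.Lib.AltSec
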